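import Cfsg.Agent.H63.AnDefs2

/-! Project AN: the normal form of a twist of type four, and the three-cycles in degree eleven. -/

set_option autoImplicit false
set_option linter.unusedSectionVars false

namespace Cfsg.Agent.H37.AnNf4

open Cfsg Cfsg.Agent.H63 Cfsg.Agent.H63.SL Cfsg.Agent.H63.AN Subgroup
open Cfsg.Agent.H7.AA
open Cfsg.Agent.H78 (c3 altOn symOn)
open Equiv (swap Perm)
open Equiv.Perm (sign)
open scoped commutatorElement

universe u

section Perm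

variable {α : Type} [Fintype α] [DecidableEq α]

theorem four_dvd_support {p : Perm α} (h2 : p * p = 1) (he : sign p = 1) :
    4 ∣ p.support.card := by
  have hc : p.cycleType = Multiset.replicate (Multiset.card p.cycleType) 2 := by
    rw [Multiset.eq_replicate]
    refine ⟨rfl, fun b hb => ?_⟩
    have h1 : b ∣ 2 := (Equiv.Perm.dvd_of_mem_cycleType hb).trans
      (orderOf_dvd_of_pow_eq_one (by rw [pow_two, h2]))
    have h3 := Equiv.Perm.two_le_of_mem_cycleType hb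
    exact le_antisymm (Nat.le_of_dvd two_pos h1) h3
  have hs : p.support.card = 2 * Multiset.card p.cycleType := by
    rw [← Equiv.Perm.sum_cycleType, hc]; simp [mul_comm]
  have hsg := Equiv.Perm.sign_of_cycleType p
  rw [he, Equiv.Perm.sum_cycleType, hs] at hsg
  have hev : Even (2 * Multiset.card p.cycleType + Multiset.card p.cycleType) := by
    by_contra hodd
    rw [Nat.not_even_iff_odd] at hodd
    rw [hodd.neg_one_pow] at hsg
    exact absurd hsg (by decide)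
  obtain ⟨k, hk⟩ := hev
  rw [hs]
  exact ⟨Multiset.card p.cycleType / 2, by omega⟩

theorem comm_le_CA (p : Perm α) : ⁅CA p, CA p⁆ ≤ CA p :=
  commutator_le.2 fun a ha b hb => by
    rw [commutatorElement_def]
    exact mul_mem (mul_mem (mul_mem ha hb) (inv_mem ha)) (inv_mem hb)

theorem zz_sq : zz * zz = 1 := by decide
theorem zz_card : zz.support.card = 8 := by decide
theorem zz_sign : sign zz = 1 := by decide
theorem s12_sq : s12 * s12 = 1 := by decide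
theorem s12_sign : sign s12 = 1 := by decide
theorem s12_comm : s12 * zz = zz * s12 := by decide

theorem ex_h1 (ε : Bool) : ∃ h : Perm (Fin 10), sign h = 1 ∧ h.support ⊆ zz.support ∧
    h * zz * h⁻¹ = s12 * pw ε ww * pw true vv := by
  cases ε
  · exact ⟨swap 1 2 * swap 2 3, by decide, by decide, by decide⟩
  · exact ⟨swap 1 3 * swap 3 2, by decide, by decide, by decide⟩

theorem ex_h2 : ∃ h : Perm (Fin 10), sign h = 1 ∧ h.support ⊆ zz.support ∧
    h * zz * h⁻¹ = zz * s12 :=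
  ⟨swap 1 3 * swap 3 2, by decide, by decide, by decide⟩

theorem em_comm (x : Fin 10 ↪ α) {h : Perm (Fin 10)} (hs : h.support ⊆ zz.support)
    {c : Perm α} (hc : c ∈ symOn (em x zz).supportᶜ) : Commute (em x h) c := by
  refine H78.commute_of_mem_symOn (X := (em x zz).support) disjoint_compl_right ?_ hc
  rw [H78.mem_symOn_iff_support, support_em, support_em]
  exact Finset.map_subset_map.2 hs

end Perm

section Group

variable {G : Type u} [Group G] {α : Type} [Fintype α] [DecidableEq α]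
  {ψ : alternatingGroup α →* G} {t : G}

/-- `y` centralises the alternating group that belongs to the conjugate `d` of `t`. -/
def Kat (ψ : alternatingGroup α →* G) (t d y : G) : Prop :=
  ∃ h, h * t * h⁻¹ = d ∧ h⁻¹ * y * h ∈ KA ψ

theorem Kat.all (B : Bs ψ t) {d y : G} (H : Kat ψ t d y) {h : G} (hh : h * t * h⁻¹ = d) :
    h⁻¹ * y * h ∈ KA ψ := by
  obtain ⟨k, hk, hy⟩ := H
  have hn : h⁻¹ * k ∈ NA ψ := B.cN _ (by
    show h⁻¹ * k * t = t * (h⁻¹ * k)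
    calc h⁻¹ * k * t = h⁻¹ * (k * t * k⁻¹) * k := by group
      _ = h⁻¹ * (h * t * h⁻¹) * k := by rw [hk, hh]
      _ = _ := by group)
  have := NA_conj_KA hn hy
  rwa [show h⁻¹ * k * (k⁻¹ * y * k) * (h⁻¹ * k)⁻¹ = h⁻¹ * y * h by group] at this

theorem Kat.conj {d y : G} (H : Kat ψ t d y) (k : G) :
    Kat ψ t (k * d * k⁻¹) (k * y * k⁻¹) := by
  obtain ⟨h, hh, hy⟩ := H
  refine ⟨k * h, by rw [← hh]; group, ?_⟩
  rwa [show (k * h)⁻¹ * (k * y * k⁻¹) * (k * h) = h⁻¹ * y * h by group]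

theorem conj_t_ev (B : Bs ψ t) {a p : Perm α} (ha : sign a = 1) (hp : sign p = 1) :
    ev ψ a * (t * ev ψ p) * (ev ψ a)⁻¹ = t * ev ψ (a * p * a⁻¹) := by
  rw [ev_conj ha hp, ← mul_assoc, ← KA_ev B.tK a]; group

theorem conj_t (B : Bs ψ t) (a : Perm α) : ev ψ a * t * (ev ψ a)⁻¹ = t := by
  rw [← KA_ev B.tK a]; group

/-- The twist of an element that commutes with `p`. -/
theorem tw_self (B : Bs ψ t) {g : G} {p : Perm α} (hp : sign p = 1)
    (hg : g * ev ψ p * g⁻¹ = ev ψ p) {p' : Perm α} {φ φ' : Perm α → Perm α}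
    (T : TwG ψ t g p p' φ φ') : p' = p := by
  refine ev_inj B.inj T.tw.2.pe hp ?_
  have := T.gp.trans hg.symm
  simpa using this

end Group

theorem nf4 (kp : KpStmt) (tw0 : Tw0Stmt.{u}) (p4a : P4aStmt) (p4b : P4bStmt) :
    Nf4Stmt.{u} := by
  intro G _ _ α _ _ ψ t B K F h10 h8 h4
  have h5 : 5 ≤ Fintype.card α := by omega
  obtain ⟨x⟩ : Nonempty (Fin 10 ↪ α) :=
    Function.Embedding.nonempty_of_card_le (by simpa using h10)
  set p := em x zz with hpdef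
  have p2 : p * p = 1 := by rw [hpdef, ← map_mul, zz_sq, map_one]
  have pc : p.support.card = 8 := by rw [hpdef, card_em, zz_card]
  have pe : sign p = 1 := by rw [hpdef, sign_em, zz_sign]
  have p1 : p ≠ 1 := fun h => by rw [h] at pc; simp at pc
  obtain ⟨q, q2, qe, qc, hq⟩ := id h8
  obtain ⟨a0, ha0, e0⟩ := K.typ q p q2 p2 (qc.trans pc.symm)
  obtain ⟨g0, hg0⟩ := isConj_iff.1 hq
  have hg : (ev ψ a0 * g0) * t * (ev ψ a0 * g0)⁻¹ = t * ev ψ p := by
    rw [← e0, ← conj_t_ev B ha0 qe, ← hg0]; group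
  generalize ev ψ a0 * g0 = g at hg
  obtain ⟨p', φ, φ', T⟩ := tw0 ψ t B K F g p p2 p1 pe hg
  have hc : p'.support.card = 8 := by
    have h1 := p4a α B.nine p p' φ φ' _ T.tw pc
    obtain ⟨k, hk⟩ := four_dvd_support T.tw.2.p2 T.tw.2.pe
    have h2 : p'.support.card ≠ 4 := fun h => h4 (h ▸ T.ts)
    have h3 : p'.support.card ≠ 0 := fun h =>
      T.tw.2.p1 (Equiv.Perm.support_eq_empty_iff.1 (Finset.card_eq_zero.1 h))
    omega
  obtain ⟨a, ha, e⟩ := K.typ p p' p2 T.tw.2.p2 (pc.trans hc.symm)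
  have hg1 : (g * ev ψ a) * t * (g * ev ψ a)⁻¹ = t * ev ψ p := by
    rw [← hg, show g * ev ψ a * t * (g * ev ψ a)⁻¹ = g * (ev ψ a * t * (ev ψ a)⁻¹) * g⁻¹ by group,
      conj_t B]
  have hp1 : (g * ev ψ a) * ev ψ p * (g * ev ψ a)⁻¹ = ev ψ p := by
    rw [show g * ev ψ a * ev ψ p * (g * ev ψ a)⁻¹ = g * (ev ψ a * ev ψ p * (ev ψ a)⁻¹) * g⁻¹ by
      group, ← ev_conj ha pe, e, T.gp]
  generalize g * ev ψ a = g1 at hg1 hp1
  obtain ⟨p1', φ1, φ1', T1⟩ := tw0 ψ t B K F g1 p p2 p1 pe hg1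
  obtain rfl := tw_self B pe hp1 T1
  obtain ⟨c, hc, hcq⟩ := p4b α B.nine _ φ1 φ1' _ T1.tw pc h8 h4
  obtain ⟨hcp, hce⟩ := mem_CA.1 hc
  have hg2 : (g1 * ev ψ c) * t * (g1 * ev ψ c)⁻¹ = t * ev ψ p := by
    rw [← hg1, show g1 * ev ψ c * t * (g1 * ev ψ c)⁻¹ = g1 * (ev ψ c * t * (ev ψ c)⁻¹) * g1⁻¹ by
      group, conj_t B]
  have hp2 : (g1 * ev ψ c) * ev ψ p * (g1 * ev ψ c)⁻¹ = ev ψ p := by
    rw [show g1 * ev ψ c * ev ψ p * (g1 * ev ψ c)⁻¹ = g1 * (ev ψ c * ev ψ p * (ev ψ c)⁻¹) * g1⁻¹ by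
      group, ← ev_conj hce pe, hcp.eq, mul_inv_cancel_right, hp1]
  obtain ⟨p2', φ2, φ2', T2⟩ := tw0 ψ t B K F _ p p2 p1 pe hg2
  obtain rfl := tw_self B pe hp2 T2
  refine ⟨_, x, φ2, φ2', T2, T2.tw, fun q hq => ?_, h8, h4⟩
  have hqC : q ∈ CA p := comm_le_CA p ((kp α B.nine).2 p p2 pe q hq)
  have h1 := ((acts_ev (ψ := ψ) hce).inv).conj (T1.a1 q hqC)
  rw [hcq q hq, show c⁻¹ * (c * q * c⁻¹) * c⁻¹⁻¹ = q by group,
    show (ev ψ c)⁻¹ * (g1⁻¹ * ev ψ q * g1) * (ev ψ c)⁻¹⁻¹ =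
      (g1 * ev ψ c)⁻¹ * ev ψ q * (g1 * ev ψ c) by group] at h1
  exact (T2.a1 q hqC).uniq h5 B.inj h1

theorem k3 (e : P4eStmt) : K3Stmt.{u} := by
  intro G _ _ α _ _ ψ t B K F g x φ φ' T T4 h11 c hc c1 hφ
  have h5 : 5 ≤ Fintype.card α := by omega
  obtain ⟨hcs, hce'⟩ := hc
  have hce : sign c = 1 := Equiv.Perm.mem_alternatingGroup.1 hce'
  have ze : sign (em x zz) = 1 := by rw [sign_em, zz_sign]
  have se : sign (em x s12) = 1 := by rw [sign_em, s12_sign]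
  have hcC : c ∈ CA (em x zz) := mem_CA.2 ⟨(em_comm x (Finset.Subset.refl _) hcs).symm, hce⟩
  have hK : Kat ψ t (t * ev ψ (em x zz)) (ev ψ c) :=
    ⟨g, T.gt, Acts.KA (hφ ▸ T.a1 c hcC)⟩
  obtain ⟨-, ⟨ε, δ, σ, -, hs, hσ, hδ⟩, -⟩ := e α x φ φ' _ T4
  obtain rfl := hσ h11.ge
  obtain ⟨rfl, hinv⟩ := hδ rfl
  rw [mul_one] at hs
  obtain ⟨h1, h1e, h1s, e1⟩ := ex_h1 ε
  obtain ⟨h2, h2e, h2s, e2⟩ := ex_h2
  have h1e' : sign (em x h1) = 1 := by rw [sign_em, h1e]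
  have h2e' : sign (em x h2) = 1 := by rw [sign_em, h2e]
  have hs' : φ (em x s12) = em x h1 * em x zz * (em x h1)⁻¹ := by
    rw [hs, ← e1, map_mul, map_mul, map_inv]
  have hsC : em x s12 ∈ CA (em x zz) :=
    mem_CA.2 ⟨by show _ * _ = _ * _; rw [← map_mul, s12_comm, map_mul], se⟩
  have hex := T.ex _ hsC (by rw [← map_mul, s12_sq, map_one])
    (by rw [hs', sign_conj', ze]) hinv
  -- the element `ev c` at `t * φ s12`
  have hK1 := hK.conj (ev ψ (em x h1))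
  rw [conj_t_ev B h1e' ze, ← hs', ← hex, ev_comm h1e' hce (em_comm x h1s hcs).eq,
    mul_inv_cancel_right] at hK1
  have hK2 := hK1.conj g
  rw [show g * (t * (g⁻¹ * ev ψ (em x s12) * g)) * g⁻¹ = g * t * g⁻¹ * ev ψ (em x s12) by group,
    T.gt, mul_assoc, ← ev_mul ze se, ← map_mul, ← e2, map_mul, map_mul, map_inv,
    ← conj_t_ev B h2e' ze] at hK2
  have hK3 := hK.conj g
  rw [show g * (t * ev ψ (em x zz)) * g⁻¹ = g * t * g⁻¹ * (g * ev ψ (em x zz) * g⁻¹) by group,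
    T.gt, T.gp, mul_assoc, ← ev_mul ze ze, ← map_mul, zz_sq, map_one, ev_one, mul_one] at hK3
  have hm : g * ev ψ c * g⁻¹ ∈ KA ψ := by
    simpa using hK3.all B (h := 1) (by simp)
  have hK4 := hK2.conj (ev ψ (em x h2))⁻¹
  rw [show (ev ψ (em x h2))⁻¹ * (ev ψ (em x h2) * (t * ev ψ (em x zz)) * (ev ψ (em x h2))⁻¹) *
      (ev ψ (em x h2))⁻¹⁻¹ = t * ev ψ (em x zz) by group, inv_inv,
    mul_assoc (ev ψ (em x h2))⁻¹, KA_ev hm, inv_mul_cancel_left] at hK4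
  have h6 := hK4.all B T.gt
  rw [show g⁻¹ * (g * ev ψ c * g⁻¹) * g = ev ψ c by group] at h6
  exact c1 (ev_KA h5 B.inj hce h6)

end Cfsg.Agent.H37.AnNf4
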