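import Cfsg.Agent.H37.Fold
import Cfsg.Agent.H40.ChevPar

/-! Matrix representations of the Lie algebra of a Chevalley datum in which the root vectors square to zero, and the
resulting homomorphisms onto the Chevalley group. -/

set_option autoImplicit false

namespace Cfsg.Agent.H37

open Cfsg.Lie Matrix

variable {F : Type*} [Field F]

section generic

variable {M : Type*} [AddCommGroup M] [Module F M] (b : ℕ → M) (μ : ℕ →* F)

/-- the value of a term list with respect to the family `b` -/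
noncomputable def evG (L : TL) : M := TL.rec 0 (fun w m c _ ih => ((c : F) * μ m) • b w + ih) L

@[simp] theorem evG_nil : evG b μ TL.nil = 0 := rfl
@[simp] theorem evG_cons (w m : ℕ) (c : ℤ) (L : TL) :
    evG b μ (TL.cons w m c L) = ((c : F) * μ m) • b w + evG b μ L := rfl

theorem evG_ins (w m : ℕ) (c : ℤ) (L : TL) : evG b μ (ins w m c L) = ((c : F) * μ m) • b w + evG b μ L := by
  induction L with
  | nil => rfl
  | cons w' m' c' L ih =>
    have : ins w m c (TL.cons w' m' c' L) = (Bool.rec (TL.cons w' m' c' (ins w m c L)) (TL.cons w' m' (c + c') L)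
      (Bool.rec false (Nat.beq m m') (Nat.beq w w')) : TL) := rfl
    rw [this]
    cases h1 : Nat.beq w w' with
    | false => show evG b μ (TL.cons _ _ _ _) = _; rw [evG_cons, evG_cons, ih]; abel
    | true =>
      cases h2 : Nat.beq m m' with
      | false => show evG b μ (TL.cons _ _ _ _) = _; rw [evG_cons, evG_cons, ih]; abel
      | true =>
        show evG b μ (TL.cons _ _ _ _) = _
        rw [evG_cons, evG_cons, Nat.eq_of_beq_eq_true h1, Nat.eq_of_beq_eq_true h2]
        push_cast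
        rw [add_mul, add_smul, add_assoc]

theorem evG_allZero {L : TL} (h : allZero L = true) : evG b μ L = 0 := by
  induction L with
  | nil => rfl
  | cons w m c L ih =>
    have h' : (Bool.rec false (allZero L) (Int.rec (fun n => Nat.beq n 0) (fun _ => false) c) : Bool) = true := h
    rcases c with n | n
    · cases h2 : Nat.beq n 0 with
      | false => simp [h2] at h'
      | true =>
        simp only [h2] at h'
        rw [evG_cons, ih h', Nat.eq_of_beq_eq_true h2]; simp
    · simp at h'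

theorem evG_insAll (L acc : TL) : evG b μ (insAll L acc) = evG b μ L + evG b μ acc := by
  induction L generalizing acc with
  | nil => simp [insAll]
  | cons w m c L ih => rw [show insAll (TL.cons w m c L) acc = insAll L (ins w m c acc) from rfl, ih, evG_ins, evG_cons]; abel

theorem evG_insAllNeg (L acc : TL) : evG b μ (insAllNeg L acc) = - evG b μ L + evG b μ acc := by
  induction L generalizing acc with
  | nil => simp [insAllNeg]
  | cons w m c L ih =>
    rw [show insAllNeg (TL.cons w m c L) acc = insAllNeg L (ins w m (-c) acc) from rfl, ih, evG_ins, evG_cons]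
    push_cast; rw [neg_mul, neg_smul]; abel

theorem evG_eqv {L R : TL} (h : eqv L R = true) : evG b μ L = evG b μ R := by
  have := evG_allZero b μ h
  rw [evG_insAllNeg, evG_insAll, evG_nil, add_zero] at this
  exact (neg_add_eq_zero.1 this).symm

/-- the combination of the `b w` described by a list -/
def lc (F : Type*) [Field F] [Module F M] (b : ℕ → M) (l : List (ℕ × ℤ)) : M := (l.map fun p => ((p.2 : ℤ) : F) • b p.1).sum

theorem evG_addL (m : ℕ) (c : ℤ) (acc : TL) (l : List (ℕ × ℤ)) :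
    evG b μ (addL m c acc l) = ((c : F) * μ m) • lc F b l + evG b μ acc := by
  induction l with
  | nil => simp [addL, lc]
  | cons p l ih =>
    rw [show addL m c acc (p :: l) = TL.cons p.1 m (c * p.2) (addL m c acc l) from rfl, evG_cons, ih, lc, lc,
      List.map_cons, List.sum_cons, smul_add, smul_smul, add_assoc]
    push_cast
    congr 2; ring

variable (F) in
/-- the linear map sending the basis vector `b_w` of the Lie algebra to the combination `th w` -/
noncomputable def thLin (D : ChevalleyDatum) (th : ℕ → List (ℕ × ℤ)) : (D.Idx → F) →ₗ[F] M :=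
  Fintype.linearCombination F fun a => lc F b (th (codeI D a))

theorem thLin_bV {D : ChevalleyDatum} (th : ℕ → List (ℕ × ℤ)) {w : ℕ} (hw : w < D.rank + D.nroots) :
    thLin F b D th (bV D F w) = lc F b (th w) := by
  by_cases h : w < D.rank
  · rw [bV_lt h, hV_eq_single ⟨w, h⟩, thLin, Fintype.linearCombination_apply_single, one_smul]; rfl
  · obtain ⟨s, rfl⟩ : ∃ s, w = D.rank + s := ⟨w - D.rank, by omega⟩
    rw [bV_add, eV_eq_single ⟨s, by omega⟩, thLin, Fintype.linearCombination_apply_single, one_smul]; rfl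

theorem evG_appL {D : ChevalleyDatum} (th : ℕ → List (ℕ × ℤ)) (L : TL) :
    evG b μ (appL (D.rank + D.nroots) th L) = thLin F b D th (ev D μ L) := by
  induction L with
  | nil => simp [appL]
  | cons w m c L ih =>
    have : appL (D.rank + D.nroots) th (TL.cons w m c L) = (Bool.rec (appL (D.rank + D.nroots) th L)
      (addL m c (appL (D.rank + D.nroots) th L) (th w)) (Nat.ble (w + 1) (D.rank + D.nroots)) : TL) := rfl
    rw [this, ev_cons, map_add, map_smul, ← ih]
    cases h : Nat.ble (w + 1) (D.rank + D.nroots) with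
    | false =>
      have hw : ¬ w + 1 ≤ D.rank + D.nroots := fun e => by rw [Nat.ble_eq_true_of_le e] at h; exact absurd h (by simp)
      rw [bV, if_neg (by omega), eV_oob (by omega)]; simp
    | true =>
      show evG b μ (addL _ _ _ _) = _
      rw [evG_addL, thLin_bV b th (Nat.le_of_ble_eq_true h)]

end generic

noncomputable def mul1 (tst : ℕ → ℕ → Bool) (op : ℕ → ℕ → ℕ) (w m : ℕ) (c : ℤ) (acc R : TL) : TL :=
  TL.rec acc (fun w' m' c' _ ih => Bool.rec ih (TL.cons (op w w') (Nat.mul m m') (Int.mul c c') ih) (tst w w')) R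

noncomputable def mulG (tst : ℕ → ℕ → Bool) (op : ℕ → ℕ → ℕ) (L R : TL) : TL :=
  TL.rec TL.nil (fun w m c _ ih => mul1 tst op w m c ih R) L

theorem evG_mulG {A : Type*} [Ring A] [Algebra F A] {b : ℕ → A} (μ : ℕ →* F) {tst : ℕ → ℕ → Bool} {op : ℕ → ℕ → ℕ}
    (h : ∀ w w', b w * b w' = if tst w w' then b (op w w') else 0) (L R : TL) :
    evG b μ (mulG tst op L R) = evG b μ L * evG b μ R := by
  have key : ∀ w m c acc, evG b μ (mul1 tst op w m c acc R) = (((c : F) * μ m) • b w) * evG b μ R + evG b μ acc := by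
    intro w m c acc
    induction R with
    | nil => simp [mul1]
    | cons w' m' c' R ih =>
      rw [evG_cons, mul_add, add_assoc, ← ih, smul_mul_smul_comm, h, show mul1 tst op w m c acc (TL.cons w' m' c' R) =
        Bool.rec (mul1 tst op w m c acc R) (TL.cons (op w w') (m * m') (c * c') (mul1 tst op w m c acc R)) (tst w w')
        from rfl]
      cases tst w w' with
      | false => simp
      | true =>
        show evG b μ (TL.cons _ _ _ _) = _
        rw [evG_cons, map_mul, if_pos rfl]; push_cast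
        congr 2; ring
  induction L with
  | nil => simp [mulG]
  | cons w m c L ih => rw [evG_cons, add_mul, ← ih, ← key]; rfl

section rep

variable {n : Type} [Fintype n] [DecidableEq n] {N : ℕ} {ix : ℕ → n} {cI : n → ℕ}

/-- `cI` and `ix` are inverse bijections between `n` and the numbers below `N` -/
structure Codes (N : ℕ) (ix : ℕ → n) (cI : n → ℕ) : Prop where
  lt : ∀ a, cI a < N
  ix_cI : ∀ a, ix (cI a) = a
  cI_ix : ∀ w < N, cI (ix w) = w

variable (F cI) in
/-- the basis vector with code `w` -/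
def bI (w : ℕ) : n → F := fun a => if cI a = w then 1 else 0

variable (F N cI) in
/-- the matrix unit with code `w` -/
def uI (w : ℕ) : Matrix n n F := vecMulVec (bI F cI (w / N)) (bI F cI (w % N))

namespace Codes

variable (h : Codes N ix cI)
include h

theorem bI_ix {w k : ℕ} (hk : k < N) : bI F cI w (ix k) = if k = w then 1 else 0 := by rw [bI, h.cI_ix k hk]

theorem bI_eq_single {w : ℕ} (hw : w < N) : bI F cI w = Pi.single (ix w) 1 := by
  funext a
  rw [bI, Pi.single_apply]
  exact if_congr ⟨fun e => by rw [← e, h.ix_cI], fun e => by rw [e, h.cI_ix w hw]⟩ rfl rfl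

theorem ext {u v : n → F} (e : ∀ k < N, u (ix k) = v (ix k)) : u = v := funext fun a => h.ix_cI a ▸ e _ (h.lt a)

theorem uI_mulVec (hN : 0 < N) (w : ℕ) (v : n → F) : uI F N cI w *ᵥ v = v (ix (w % N)) • bI F cI (w / N) := by
  rw [uI, vecMulVec_mulVec, h.bI_eq_single (Nat.mod_lt _ hN), single_dotProduct, one_mul, op_smul_eq_smul]

theorem uI_mul (hN : 0 < N) (w w' : ℕ) : uI F N cI w * uI F N cI w' =
    if Nat.beq (w % N) (w' / N) then uI F N cI (w / N * N + w' % N) else 0 := by
  rw [uI, uI, vecMulVec_mul_vecMulVec, h.bI_eq_single (Nat.mod_lt _ hN), single_dotProduct, one_mul,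
    h.bI_ix (Nat.mod_lt _ hN)]
  simp only [Nat.beq_eq]
  split_ifs
  · rw [uI, one_smul, Nat.mul_add_mod', Nat.mod_mod, add_comm, Nat.add_mul_div_right _ _ hN,
      Nat.div_eq_of_lt (Nat.mod_lt _ hN), zero_add]
  · simp

end Codes

/-- the entry of a sparse matrix in the row `c` -/
def lk (N c : ℕ) : List (ℕ × ℤ) → ℕ × ℤ
  | [] => (0, 0)
  | p :: l => if p.1 / N = c then (p.1 % N, p.2) else lk N c l

theorem lk_eq_zero {c : ℕ} {l : List (ℕ × ℤ)} (h : c ∉ l.map fun p => p.1 / N) : (lk N c l).2 = 0 := by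
  induction l with
  | nil => rfl
  | cons p l ih =>
    rw [List.map_cons, List.mem_cons, not_or] at h
    rw [lk, if_neg (Ne.symm h.1), ih h.2]

theorem Codes.lc_mulVec (h : Codes N ix cI) {l : List (ℕ × ℤ)} (hl : (l.map fun p => p.1 / N).Nodup) (v : n → F) {c : ℕ}
    (hc : c < N) : (lc F (uI F N cI) l *ᵥ v) (ix c) = ((lk N c l).2 : F) * v (ix (lk N c l).1) := by
  induction l with
  | nil => simp [lc, lk]
  | cons p l ih =>
    rw [List.map_cons, List.nodup_cons] at hl
    have ih := ih hl.2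
    rw [lc] at ih
    rw [lc, List.map_cons, List.sum_cons, add_mulVec, Pi.add_apply, ih, smul_mulVec, h.uI_mulVec (by omega),
      Pi.smul_apply, Pi.smul_apply, h.bI_ix hc, lk]
    by_cases e : p.1 / N = c
    · rw [lk_eq_zero (e ▸ hl.1)]; simp [e]
    · simp [e, Ne.symm e]

theorem Codes.lc_bI (h : Codes N ix cI) (hN : 0 < N) {l : List (ℕ × ℤ)} {s : ℕ} (hl : ∀ p ∈ l, p.1 % N ≠ s) :
    lc F (uI F N cI) l *ᵥ bI F cI s = 0 := by
  induction l with
  | nil => simp [lc]
  | cons p l ih =>
    have ih := ih fun q hq => hl q (List.mem_cons_of_mem _ hq)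
    rw [lc] at ih
    rw [lc, List.map_cons, List.sum_cons, add_mulVec, ih, smul_mulVec, h.uI_mulVec hN, h.bI_ix (Nat.mod_lt _ hN),
      if_neg (hl p List.mem_cons_self)]
    simp

noncomputable def mulM (N : ℕ) : TL → TL → TL :=
  mulG (fun w w' => Nat.beq (w % N) (w' / N)) fun w w' => w / N * N + w' % N

noncomputable def checkRep (N l m : ℕ) (code : ℕ → ℕ → ℕ) (cor : ℕ → ℕ) (th : ℕ → List (ℕ × ℤ)) (r : ℕ) : Bool :=
  (fun E => band (allZero (insAll (mulM N E E) TL.nil)) (allLt (fun w => (fun A B =>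
    eqv (insAll (mulM N A E) A) (insAll (mulM N E B) B)) (appL (l + m) th (appX l code cor r 1 2 (TL.cons w 1 1 TL.nil)))
      (appL (l + m) th (TL.cons w 1 1 TL.nil))) (l + m))) (appL (l + m) th (TL.cons (l + r) 2 1 TL.nil))

variable {D : ChevalleyDatum}

/-- `γ` acts on the image of the Lie algebra as `g` -/
def RepRel (Θ : (D.Idx → F) →ₗ[F] Matrix n n F) (γ : GL n F) (g : D.group F) : Prop :=
  ∀ v, Θ (((g : GL D.Idx F) : Matrix D.Idx D.Idx F) *ᵥ v) * γ = γ * Θ v

theorem checkRep_sound (h : Codes N ix cI) (hN : 0 < N) {code : ℕ → ℕ → ℕ} {cor car : ℕ → ℕ} (V : Valid D)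
    (hD : Link D code cor car) {th : ℕ → List (ℕ × ℤ)} {r : ℕ} (hr : r < D.nroots)
    (hc : checkRep N D.rank D.nroots code cor th r = true) (t : F) : ∃ γ : GL n F,
      (γ : Matrix n n F) = 1 + t • thLin F (uI F N cI) D th (eV D F r) ∧ RepRel (thLin F (uI F N cI) D th) γ (V.xE F r t) := by
  obtain ⟨μ, h2, -, -⟩ := exists_mu t 0 0
  obtain ⟨h3, h4⟩ := band_iff.1 hc
  have hm := evG_mulG μ (h.uI_mul (F := F) hN)
  have h5 := evG_allZero (uI F N cI) μ h3
  simp only [mulM, evG_insAll, hm, evG_appL, ev_cons, bV_add, h2, ev_nil, evG_nil, add_zero, Int.cast_one, one_mul,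
    map_smul] at h5
  refine ⟨⟨_, 1 - t • thLin F (uI F N cI) D th (eV D F r), ?_, ?_⟩, rfl, fun v => ?_⟩
  · rw [add_mul, mul_sub, mul_sub, h5]; simp
  · rw [sub_mul, mul_add, mul_add, h5]; simp
  have key : (LinearMap.mulRight F (1 + t • thLin F (uI F N cI) D th (eV D F r))) ∘ₗ thLin F (uI F N cI) D th ∘ₗ
      (D.x F r t).mulVecLin = (LinearMap.mulLeft F (1 + t • thLin F (uI F N cI) D th (eV D F r))) ∘ₗ
        thLin F (uI F N cI) D th := by
    have key : ∀ w < D.rank + D.nroots, thLin F (uI F N cI) D th (D.x F r t *ᵥ bV D F w) *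
        (1 + t • thLin F (uI F N cI) D th (eV D F r)) =
        (1 + t • thLin F (uI F N cI) D th (eV D F r)) * thLin F (uI F N cI) D th (bV D F w) := fun w hw => by
      have := evG_eqv (uI F N cI) μ (allLt_sound h4 w hw)
      simp only [mulM, evG_insAll, hm, evG_appL, ev_appX hD.basic hD.fast μ hr, ev_cons, bV_add, h2, ev_nil, add_zero,
        Int.cast_one, one_mul, map_one, one_smul, map_smul] at this
      rw [mul_add, add_mul, mul_one, one_mul, add_comm, this, add_comm]
    refine LinearMap.pi_ext' fun a => LinearMap.ext_ring ?_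
    rcases a with a | a
    · simpa [bV_lt a.2, hV_eq_single] using key a (by omega)
    · simpa [bV_add, eV_eq_single] using key (D.rank + a) (by omega)
  simpa [V.coe_xE, V.coe_xG] using LinearMap.congr_fun key v

variable {Θ : (D.Idx → F) →ₗ[F] Matrix n n F}

theorem RepRel.one : RepRel Θ 1 1 := fun v => by simp

theorem RepRel.mul {γ γ' : GL n F} {g g' : D.group F} (h : RepRel Θ γ g) (h' : RepRel Θ γ' g') :
    RepRel Θ (γ * γ') (g * g') := fun v => by
  rw [Subgroup.coe_mul, Units.val_mul, Units.val_mul, ← mulVec_mulVec, ← mul_assoc, h, mul_assoc, h', mul_assoc]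

theorem RepRel.inv {γ : GL n F} {g : D.group F} (h : RepRel Θ γ g) : RepRel Θ γ⁻¹ g⁻¹ := fun v => by
  rw [Units.mul_inv_eq_iff_eq_mul, mul_assoc, Units.eq_inv_mul_iff_mul_eq, ← h, mulVec_mulVec, ← Units.val_mul,
    ← Subgroup.coe_mul, mul_inv_cancel]
  simp

variable (Θ) in
/-- the elements of `G` inducing an element of the Chevalley group -/
def repSub (G : Subgroup (GL n F)) : Subgroup (GL n F) where
  carrier := {γ | γ ∈ G ∧ ∃ g, RepRel Θ γ g}
  one_mem' := ⟨one_mem _, 1, RepRel.one⟩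
  mul_mem' := fun ⟨a, _, ha⟩ ⟨b, _, hb⟩ => ⟨mul_mem a b, _, ha.mul hb⟩
  inv_mem' := fun ⟨a, _, ha⟩ => ⟨inv_mem a, _, ha.inv⟩

theorem exists_root_elt (V : Valid D) {G : Subgroup (GL n F)}
    (h : ∀ i < D.rank, ∀ r ∈ [D.simple i, D.neg (D.simple i)], ∀ t, ∃ γ ∈ G,
      (γ : Matrix n n F) = 1 + t • Θ (eV D F r) ∧ RepRel Θ γ (V.xE F r t)) :
    ∀ r < D.nroots, ∀ t, ∃ γ ∈ G, (γ : Matrix n n F) = 1 + t • Θ (eV D F r) ∧ RepRel Θ γ (V.xE F r t) := by
  refine V.root_induction (fun i hi => h i hi _ List.mem_cons_self) fun i hi r hr ih t => ?_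
  obtain ⟨a, ha, -, ha'⟩ := h i hi _ List.mem_cons_self 1
  obtain ⟨b, hb, -, hb'⟩ := h i hi (D.neg (D.simple i)) (by simp) (-1⁻¹)
  obtain ⟨c, hc, e, hc'⟩ := ih (((V.η i r : ℤ) : F) * t)
  have h1 : RepRel Θ (a * b * a) (V.nE F (D.simple i) 1) := by rw [V.nE_eq]; exact (ha'.mul hb').mul ha'
  have h2 := (h1.mul hc').mul h1.inv
  rw [V.nE_simple_conj hi hr, ← mul_assoc _ _ t, (V.aut i hi).sqF hr, one_mul] at h2
  refine ⟨_, H34.cj1 G (mul_mem (mul_mem ha hb) ha) hc, ?_, h2⟩
  have h3 := h1 (eV D F r)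
  generalize a * b * a = x at h3
  rw [V.coe_nE, V.coe_nG, V.nMat_eV hi one_ne_zero hr, _root_.one_zpow, mul_one, map_smul] at h3
  rw [Units.val_mul, Units.mul_inv_eq_iff_eq_mul, Units.val_mul, e, mul_add, add_mul, mul_smul_comm, ← h3,
    smul_mul_assoc, smul_mul_assoc, smul_smul, mul_right_comm _ t, (V.aut i hi).sqF hr]
  simp

/-- a group of matrices acting on the image of the Lie algebra through a simple Chevalley group -/
theorem equiv_of_repRel (V : Valid D) [hs : IsSimpleGroup (D.group F)] (hc : ¬ IsMulCommutative (D.group F))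
    {G : Subgroup (GL n F)} (h : ∀ r < D.nroots, ∀ t, ∃ γ ∈ G,
      (γ : Matrix n n F) = 1 + t • Θ (eV D F r) ∧ RepRel Θ γ (V.xE F r t))
    (hne : ∃ r < D.nroots, ∃ j < D.rank, D.cartan j r = -1 ∧ Θ (eV D F r) ≠ 0)
    (hG : ∀ K : Subgroup (GL n F), (∀ r < D.nroots, ∀ t : F, ∀ γ ∈ G, (γ : Matrix n n F) = 1 + t • Θ (eV D F r) → γ ∈ K) →
      G ≤ K) : Nonempty (G ⧸ Subgroup.center G ≃* D.group F) := by
  have h1 : G ≤ repSub Θ G := hG _ fun r hr t γ hγ e => by
    obtain ⟨γ', -, e', h'⟩ := h r hr t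
    exact ⟨hγ, _, Units.ext (e'.trans e.symm) ▸ h'⟩
  have h2 : ∀ g, ∃ γ ∈ G, RepRel Θ γ g := V.group_induction ⟨1, one_mem _, RepRel.one⟩ fun r hr t _ ⟨_, a, b⟩ => by
    obtain ⟨γ, c, -, d⟩ := h r hr t
    exact ⟨_, mul_mem c a, d.mul b⟩
  let K : Subgroup (D.group F) :=
    { carrier := {g | RepRel Θ 1 g}
      mul_mem' := fun ha hb => by simpa using ha.mul hb
      one_mem' := RepRel.one
      inv_mem' := fun ha => by simpa using ha.inv }
  have hK : K = ⊥ := (Subgroup.Normal.eq_bot_or_eq_top ⟨fun k hk g => by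
      obtain ⟨γ, -, ha⟩ := h2 g
      show RepRel Θ 1 _
      simpa using (ha.mul hk).mul ha.inv⟩).resolve_right fun e => by
    obtain ⟨r, hr, j, hj, h3, h4⟩ := hne
    have : RepRel Θ 1 (V.xE F r 1) := (e ▸ Subgroup.mem_top _ : V.xE F r 1 ∈ K)
    have := this (hV D F j)
    rw [V.coe_xE, V.coe_xG, x_hV hr 1 hj, h3] at this
    exact h4 (by simpa using this)
  have huniq : ∀ {γ a b}, RepRel Θ γ a → RepRel Θ γ b → a = b := fun {g a b} ha hb =>
    mul_inv_eq_one.1 (Subgroup.mem_bot.1 (hK ▸ (show RepRel Θ 1 _ by simpa using ha.mul hb.inv : a * b⁻¹ ∈ K)))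
  choose f hf using fun γ : G => (h1 γ.2).2
  let π : G →* D.group F := MonoidHom.mk' f fun a b => huniq (hf _) ((hf a).mul (hf b))
  have hπ : Function.Surjective π := fun g => by
    obtain ⟨γ, a, b⟩ := h2 g
    exact ⟨⟨γ, a⟩, huniq (hf _) b⟩
  have h3 : Subgroup.center G = π.ker := le_antisymm (fun γ hγ => ?_) fun γ hγ => ?_
  · exact ⟨(QuotientGroup.quotientMulEquivOfEq h3).trans (QuotientGroup.quotientKerEquivOfSurjective π hπ)⟩
  · have h4 : Subgroup.center (D.group F) = ⊥ := (Subgroup.Normal.eq_bot_or_eq_top inferInstance).resolve_right fun e =>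
      hc ⟨⟨fun a b => Subgroup.mem_center_iff.1 (e ▸ Subgroup.mem_top b) a⟩⟩
    refine Subgroup.mem_bot.1 (h4 ▸ Subgroup.mem_center_iff.2 fun g => ?_)
    obtain ⟨δ, rfl⟩ := hπ g
    rw [← map_mul, Subgroup.mem_center_iff.1 hγ, map_mul]
  · have h4 := hf γ
    rw [show f γ = 1 from hγ] at h4
    refine Subgroup.mem_center_iff.2 fun δ => Subtype.ext (hG (Subgroup.centralizer {γ.1}) (fun r _ t δ _ e => ?_) δ.2 _ rfl).symm
    rintro _ rfl
    exact Units.ext (by simpa [e, mul_add, add_mul] using congrArg (t • ·) (h4 (eV D F r)).symm)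

end rep

end Cfsg.Agent.H37
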